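import Cfsg.Agent.Solv.Coprime3
import Cfsg.Prelude.Def_TwoFusion

/-! Two abstract lemmas: a Burnside transfer argument and a criterion for isolated involutions. -/

set_option autoImplicit false

namespace Cfsg.Agent.Class.C63

open Subgroup

variable {X : Type*} [Group X] [Finite X]

theorem exists_normalizer_notMem {p : ℕ} [Fact p.Prime] {R T : Subgroup X} (hR : IsPGroup p R)
    (hTR : T < R) : ∃ x ∈ R, x ∉ T ∧ ∀ y ∈ T, x * y * x⁻¹ ∈ T := by
  have hnc : NormalizerCondition R := Group.normalizerCondition_of_isNilpotent (h := hR.isNilpotent)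
  obtain ⟨x, h1, h2⟩ := SetLike.exists_of_lt (hnc (T.subgroupOf R)
    (lt_top_iff_ne_top.2 fun h => hTR.not_ge (subgroupOf_eq_top.1 h)))
  exact ⟨x, x.2, h2, fun y hy => (h1 ⟨y, hTR.le hy⟩).1 hy⟩

theorem central_of_burnside {K E : Subgroup X} [K.Normal] [IsMulCommutative E]
    (hsup : ∀ x, ∃ y ∈ E, ∃ k ∈ K, x = y * k) (hE : 3 < Nat.card E) (hE3 : ∀ y ∈ E, y ^ 3 = 1)
    (hEK : ∀ y ∈ E, y ∈ K → y = 1) {t : X} (ht : t ∈ K) (h3 : orderOf t = 3)
    (hc : ∀ y ∈ E, Commute y t) (hinv : ∀ k ∈ K, k * t * k⁻¹ ≠ t⁻¹)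
    (H1 : ∀ y ∈ E, y ≠ 1 → ∀ k ∈ K, Commute k y → ∀ z ∈ E, Commute k z)
    (H2 : ∀ k ∈ K, (∀ y ∈ E, Commute k y) → Commute k t → k ^ 2 ∈ zpowers t) (x : X) :
    ∀ y ∈ E, Commute x y := by
  classical
  have hEE : ∀ y ∈ E, ∀ z ∈ E, Commute y z := fun y hy z hz => setLike_mul_comm hy hz
  have hA : ∀ a ∈ E ⊔ zpowers t, ∃ y ∈ E, ∃ z ∈ zpowers t, y * z = a := fun a ha => by
    rwa [← SetLike.mem_coe, coe_mul_of_left_le_normalizer_right] at ha
    exact fun y hy => centralizer_le_normalizer _ fun z ⟨n, hn⟩ => hn ▸ ((hc y hy).zpow_right n).symm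
  have hAK : ∀ a ∈ E ⊔ zpowers t, a ∈ K → a ∈ zpowers t := fun a ha hK => by
    obtain ⟨y, hy, z, hz, rfl⟩ := hA a ha
    rwa [hEK y hy ((K.mul_mem_cancel_right (zpowers_le.2 ht hz)).1 hK), one_mul]
  have hN : ∀ k ∈ K, (∀ a ∈ E ⊔ zpowers t, k * a * k⁻¹ ∈ E ⊔ zpowers t) →
      (∀ y ∈ E, Commute k y) ∧ Commute k t := fun k hk hn => by
    constructor
    · let f : E → zpowers t := fun y => ⟨k * y * k⁻¹ * (y : X)⁻¹, hAK _
        (mul_mem (hn _ (mem_sup_left y.2)) (mem_sup_left (inv_mem y.2))) (by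
          rw [mul_assoc, mul_assoc, ← mul_assoc (y : X)]
          exact mul_mem hk (by simpa using ‹K.Normal›.conj_mem _ (inv_mem hk) y))⟩
      obtain ⟨y, z, hne, e⟩ : ∃ y z, y ≠ z ∧ f y = f z := by
        by_contra hc
        push Not at hc
        have := Nat.card_le_card_of_injective f fun y z e => by_contra fun h => hc y z h e
        rw [Nat.card_zpowers] at this
        omega
      refine H1 _ (mul_mem (inv_mem z.2) y.2) (fun h => hne (Subtype.ext (inv_mul_eq_one.1 h).symm))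
        k hk ?_
      have e1 : k * y * k⁻¹ * (y : X)⁻¹ = k * z * k⁻¹ * (z : X)⁻¹ := congrArg Subtype.val e
      calc k * ((z : X)⁻¹ * y) = (k * z * k⁻¹)⁻¹ * (k * y * k⁻¹ * (y : X)⁻¹) * y * k := by group
        _ = (z : X)⁻¹ * y * k := by rw [e1]; group
    · have h1 := hAK _ (hn _ (mem_sup_right (mem_zpowers t))) (‹K.Normal›.conj_mem _ ht k)
      obtain ⟨n, hn, e⟩ := (mem_zpowers_iff_mem_range_orderOf).1 h1 |> Finset.mem_image.1
      rw [h3, Finset.mem_range] at hn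
      interval_cases n
      · rw [pow_zero, eq_comm, conj_eq_one_iff] at e
        simp [e] at h3
      · exact mul_inv_eq_iff_eq_mul.1 (by rw [← e, pow_one])
      · refine absurd (e.symm.trans (eq_inv_of_mul_eq_one_left ?_)) (hinv k hk)
        rw [← pow_succ, show 2 + 1 = orderOf t from h3.symm, pow_orderOf_eq_one]
  have hp : IsPGroup 3 (E ⊔ zpowers t : Subgroup X) := by
    rintro ⟨a, ha⟩
    obtain ⟨y, hy, _, ⟨n, rfl⟩, rfl⟩ := hA a ha
    refine ⟨1, Subtype.ext ?_⟩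
    change (y * t ^ n) ^ 3 ^ 1 = 1
    rw [pow_one, ((hc y hy).zpow_right n).mul_pow, hE3 y hy, ← zpow_natCast, zpow_comm,
      zpow_natCast, ← h3, pow_orderOf_eq_one, one_zpow, one_mul]
  have hCA : ∀ k, (∀ y ∈ E, Commute k y) → Commute k t → ∀ a ∈ E ⊔ zpowers t, Commute k a :=
    fun k h1 h2 a ha => by
      obtain ⟨y, hy, _, ⟨n, rfl⟩, rfl⟩ := hA a ha
      exact (h1 y hy).mul_right (h2.zpow_right n)
  have hN' : ∀ x, (∀ a ∈ E ⊔ zpowers t, x * a * x⁻¹ ∈ E ⊔ zpowers t) → ∃ y ∈ E, ∃ k ∈ K,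
      x = y * k ∧ (∀ y ∈ E, Commute k y) ∧ Commute k t := fun x hx => by
    obtain ⟨y, hy, k, hk, rfl⟩ := hsup x
    refine ⟨y, hy, k, hk, rfl, hN k hk fun a ha => ?_⟩
    have := mul_mem (mul_mem (inv_mem (mem_sup_left hy)) (hx a ha)) (mem_sup_left hy)
    rwa [show y⁻¹ * (y * k * a * (y * k)⁻¹) * y = k * a * k⁻¹ by group] at this
  obtain ⟨S, hS⟩ := hp.exists_le_sylow
  have hS' : (S : Subgroup X) = E ⊔ zpowers t := by
    refine (hS.lt_or_eq.resolve_left fun hlt => ?_).symm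
    obtain ⟨x, hx, h1, h2⟩ := exists_normalizer_notMem S.2 hlt
    obtain ⟨y, hy, k, hk, rfl, h4, h5⟩ := hN' x h2
    obtain ⟨n, hn⟩ := S.2 ⟨k, (mul_mem_cancel_left (hS (mem_sup_left hy))).1 hx⟩
    obtain ⟨m, hm⟩ : Odd (3 ^ n) := Odd.pow (by decide)
    have h6 : k ^ 3 ^ n = 1 := congrArg Subtype.val hn
    rw [hm, pow_succ, pow_mul, mul_eq_one_iff_eq_inv'] at h6
    exact h1 (mul_mem (mem_sup_left hy)
      (mem_sup_right (h6 ▸ inv_mem (pow_mem (H2 k hk h4 h5) m))))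
  have hP : normalizer (S : Set X) ≤ centralizer (S : Set X) := fun x hx a ha => by
    obtain ⟨y, hy, k, hk, rfl, h4, h5⟩ := hN' x fun a ha => hS' ▸ (hx a).1 (hS ha)
    exact ((hCA y (hEE y hy) (hc y hy) a (hS'.le ha)).mul_left (hCA k h4 h5 a (hS'.le ha))).symm
  have hL : (MonoidHom.transferSylow S hP).ker ≤ centralizer (E : Set X) := by
    refine Solv.le_of_centralizers_le E _ (fun hcy => ?_) (le_normalizer_of_normal) ?_ _
      fun y hy h1 x hx z hz => ?_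
    · have := Nat.le_of_dvd three_pos (hcy.exponent_eq_card ▸
        Monoid.exponent_dvd_of_forall_pow_eq_one fun y : E => Subtype.ext (hE3 y y.2))
      omega
    · obtain ⟨n, hn⟩ := IsPGroup.iff_card.1 (hp.to_le le_sup_left)
      rw [hn]
      exact ((Nat.prime_three.coprime_iff_not_dvd).2
        (MonoidHom.not_dvd_card_ker_transferSylow S hP)).pow_left n
    · obtain ⟨w, hw, k, hk, rfl⟩ := hsup x
      have h2 : Commute k y := by
        simpa using ((hEE w hw y hy).inv_left.mul_left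
          (mem_centralizer_singleton_iff.1 hx.2 : Commute (w * k) y))
      exact ((hEE w hw z hz).mul_left (H1 y hy h1 k hk h2 z hz)).symm
  obtain ⟨⟨l, a⟩, rfl⟩ := (MonoidHom.ker_transferSylow_isComplement' S hP).2 x
  intro y hy
  exact (show Commute (l : X) y from (hL l.2 y hy).symm).mul_left
    (hCA y (hEE y hy) (hc y hy) a (hS'.le a.2)).symm

omit [Finite X] in
theorem orderOf_of_isConj {a b : X} (h : IsConj a b) : orderOf b = orderOf a := by
  obtain ⟨c, rfl⟩ := isConj_iff.1 h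
  exact (MulAut.conj c).orderOf_eq a

theorem isolated_of {N : Subgroup X} {i j : X} (hi : orderOf i = 2) (hj : orderOf j = 2)
    (hij : Commute j i) (hC : ∀ x, Commute x j → x ∈ N) (hn : ¬ IsConj j i)
    (hN : ∀ s ∈ N, orderOf s = 2 → Commute s i → s ≠ i → ∃ n ∈ N, n * j * n⁻¹ = s) :
    IsIsolatedInvolution i := by
  let C := centralizer ({i} : Set X)
  have two : ∀ x : C, orderOf (x : X) = 2 → ∃ T : Sylow 2 C, x ∈ T := fun x hx => by
    obtain ⟨T, hT⟩ := (IsPGroup.of_card (p := 2) (n := 1) (G := zpowers x)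
      (by rw [Nat.card_zpowers, ← orderOf_coe, hx, pow_one])).exists_le_sylow
    exact ⟨T, hT (mem_zpowers x)⟩
  obtain ⟨T, hT⟩ := two ⟨j, mem_centralizer_singleton_iff.2 hij⟩ hj
  have h1 : (T : Subgroup C) ≤ N.subgroupOf C := by
    by_contra hc
    obtain ⟨x, hx, h2, h3⟩ := exists_normalizer_notMem T.2 (inf_lt_left.2 hc)
    have h4 := h3 _ ⟨hT, hC j rfl⟩
    have h5 : Commute (x : X) i := mem_centralizer_singleton_iff.1 x.2
    obtain ⟨n, hn', e⟩ := hN (x * j * (x : X)⁻¹) h4.2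
      ((orderOf_of_isConj (isConj_iff.2 ⟨(x : X), rfl⟩)).trans hj)
      ((h5.mul_left hij).mul_left h5.inv_left) fun e => hn (isConj_iff.2 ⟨x, e⟩)
    refine h2 ⟨hx, (N.mul_mem_cancel_left (inv_mem hn')).1 (hC _ ?_)⟩
    have e' : n * j * n⁻¹ = x * j * (x : X)⁻¹ := e
    calc n⁻¹ * x * j = n⁻¹ * (x * j * (x : X)⁻¹) * x := by group
      _ = j * (n⁻¹ * x) := by rw [← e']; group
  refine ⟨hi, fun g hg => by_contra fun hne => ?_⟩
  have h2 : orderOf (g * i * g⁻¹) = 2 := (orderOf_of_isConj (isConj_iff.2 ⟨g, rfl⟩)).trans hi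
  obtain ⟨T', hT'⟩ := two ⟨_, mem_centralizer_singleton_iff.2 hg.symm⟩ h2
  obtain ⟨c, rfl⟩ := MulAction.exists_smul_eq C T T'
  have h3 : Commute (c : X)⁻¹ i := mem_centralizer_singleton_iff.1 (c⁻¹).2
  have h4 := h1 (Subgroup.mem_pointwise_smul_iff_inv_smul_mem.1 hT')
  have h5 : IsConj i ((c : X)⁻¹ * (g * i * g⁻¹) * c) := isConj_iff.2 ⟨(c : X)⁻¹ * g, by group⟩
  obtain ⟨n, -, e⟩ := hN ((c : X)⁻¹ * (g * i * g⁻¹) * c) (by simpa [mem_subgroupOf] using h4)
    ((orderOf_of_isConj h5).trans hi) ((h3.mul_left hg.symm).mul_left (by simpa using h3.inv_left))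
    fun e => hne (by
      calc g * i * g⁻¹ = c * ((c : X)⁻¹ * (g * i * g⁻¹) * c) * (c : X)⁻¹ := by group
        _ = i := by rw [e, mul_assoc, ← h3.eq, mul_inv_cancel_left])
  exact hn ((isConj_iff.2 ⟨n, e⟩).trans h5.symm)

end Cfsg.Agent.Class.C63
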