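import Cfsg.Agent.Class.C63.Weyl

/-! The Clifford group: lifts of transvections, primitivity, soluble normal subgroups. -/

set_option autoImplicit false

namespace Cfsg.Agent.Class.C63

open Cfsg.Geo Cfsg.Agent.Class.Asch Om Dot
open Matrix hiding mul_inv_rev
open scoped MatrixGroups commutatorElement

theorem exists_fixed {G : Type*} [Group G] [Finite G] {p : ℕ} [Fact p.Prime] {E N : Subgroup G}
    (hE : IsPGroup p E) (hle : E ≤ Subgroup.normalizer (N : Set G)) (hp : p ∣ Nat.card N) :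
    ∃ n ∈ N, n ≠ 1 ∧ ∀ x ∈ E, x * n * x⁻¹ = n := by
  letI : MulAction E N := MulAction.compHom N (N.normalizerMonoidHom.comp (Subgroup.inclusion hle))
  obtain ⟨b, hb, h1⟩ := hE.exists_fixed_point_of_prime_dvd_card_of_fixed_point N hp (a := 1)
    fun x => map_one (N.normalizerMonoidHom (Subgroup.inclusion hle x))
  exact ⟨b, b.2, fun h => h1 (Subtype.ext h.symm), fun x hx => congrArg Subtype.val (hb ⟨x, hx⟩)⟩

variable {F : Type*} [Field F] [Om F] {A : Type} [AddCommGroup A] [Dot A] [Fintype A]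
  [DecidableEq A]

local notation "ω" => (Om.ω : F)

theorem WM_rel (u : A × A) : WM F u * WM F u = WM F (-u) ∧ WM F (-u) * WM F (-u) = WM F u ∧
    WM F u * WM F (-u) = 1 ∧ WM F (-u) * WM F u = 1 := by
  simp [WM_mul, add_self_eq, WM_zero]

variable (F) in
/-- The lift of the symplectic transvection along `u`. -/
def tt (u : A × A) : GL A F where
  val := (1 - ω ^ 2)⁻¹ • (ω • 1 + WM F u + WM F (-u))
  inv := (1 - ω)⁻¹ • (ω ^ 2 • 1 + WM F u + WM F (-u))
  val_inv := by
    have h1 := one_sub_om (F := F); have h2 := one_sub_om_sq (F := F)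
    simp only [smul_mul, Matrix.mul_smul, add_mul, mul_add, WM_rel, one_mul, mul_one, neg_neg]
    match_scalars <;> field_simp
    all_goals linear_combination (rel (F := F))
  inv_val := by
    have h1 := one_sub_om (F := F); have h2 := one_sub_om_sq (F := F)
    simp only [smul_mul, Matrix.mul_smul, add_mul, mul_add, WM_rel, one_mul, mul_one, neg_neg]
    match_scalars <;> field_simp
    all_goals linear_combination (rel (F := F))

theorem coe_tt (u : A × A) :
    (tt F u : Matrix A A F) = (1 - ω ^ 2)⁻¹ • (ω • 1 + WM F u + WM F (-u)) := rfl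

theorem coe_tt_inv (u : A × A) :
    (((tt F u)⁻¹ : GL A F) : Matrix A A F) = (1 - ω)⁻¹ • (ω ^ 2 • 1 + WM F u + WM F (-u)) := rfl

theorem tt_neg (u : A × A) : tt F (-u) = tt F u :=
  Units.ext (by rw [coe_tt, coe_tt, neg_neg, add_right_comm])

theorem tt_cube (u : A × A) : tt F u ^ 3 = 1 := by
  rw [pow_succ, pow_two, mul_eq_one_iff_eq_inv]
  refine Units.ext ?_
  have h1 := one_sub_om (F := F); have h2 := one_sub_om_sq (F := F)
  simp only [Units.val_mul, coe_tt, coe_tt_inv, smul_mul, Matrix.mul_smul, add_mul, mul_add,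
    WM_rel, one_mul, mul_one, neg_neg]
  match_scalars <;> field_simp
  · linear_combination (-ω ^ 4 + ω ^ 3 + 2 * ω ^ 2 - 4 * ω + 2) * (rel (F := F))
  all_goals linear_combination (-ω ^ 2 + ω) * (rel (F := F))

theorem ad_WM (h : u F) (v : A × A) : ad (WM F v) = WM F (-v) := W_mem_Un v h

theorem tt_mem_Un (v : A × A) : tt F v ∈ Un F A := fun h => by
  have : σ (ω ^ 2) = ω := by
    rw [map_pow, hσ h]; linear_combination ω * om_cube (F := F)
  rw [coe_tt, coe_tt_inv, ad_smul, ad_add, ad_add, ad_smul, ad_one, ad_WM h, ad_WM h, neg_neg,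
    hσ h, map_inv₀, map_sub, map_one, this, add_right_comm]

/-- Symplectic transvections. -/
def τ (k : ZMod 3) (w u : A × A) : A × A := u + (k * s u w).val • w

omit [Fintype A] [DecidableEq A] in
theorem τ_cases (k : ZMod 3) (w u : A × A) : (k * s u w = 0 ∧ τ k w u = u) ∨
    (k * s u w = 1 ∧ τ k w u = u + w) ∨ (k * s u w = -1 ∧ τ k w u = u - w) := by
  rcases zm3 (k * s u w) with h | h | h
  · simp [τ, h]
  · exact Or.inr (Or.inl ⟨h, by rw [τ, h]; exact congrArg _ (one_nsmul w)⟩)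
  · exact Or.inr (Or.inr ⟨h, by
      rw [τ, h, sub_eq_add_neg, ← add_self_eq]; exact congrArg _ (two_nsmul w)⟩)

/-- `g` induces `φ` on the Weyl operators. -/
def Ex (g : GL A F) (φ : A × A → A × A) : Prop := ∀ u, g * W F u * g⁻¹ = W F (φ u)

theorem Ex.act {g : GL A F} {φ : A × A → A × A} (h : Ex g φ) : Act g φ := fun u =>
  ⟨1, by rw [h, scal_one, one_mul]⟩

theorem Ex.mul {g k : GL A F} {φ ψ : A × A → A × A} (h : Ex g φ) (h' : Ex k ψ) :
    Ex (g * k) (φ ∘ ψ) := fun u => by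
  rw [Function.comp, ← h, ← h']; group

theorem ex_tt (w : A × A) : Ex (tt F w) (τ (-1) w) := fun u => by
  rw [mul_inv_eq_iff_eq_mul]
  refine Units.ext ?_
  have e1 : -w + u = u - w := by abel
  have e2 : u + w + w = u - w := by rw [add_assoc, add_self_eq, sub_eq_add_neg]
  have e3 : u - w + -w = u + w := by rw [sub_eq_add_neg, add_assoc, add_self_eq, neg_neg]
  simp only [Units.val_mul, coe_tt, coe_W, smul_mul, Matrix.mul_smul, add_mul, mul_add, WM_mul,
    one_mul, mul_one, add_comm w u, e1, map_neg, AddMonoidHom.neg_apply, s_anti u w]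
  rcases τ_cases (-1) w u with ⟨h, h'⟩ | ⟨h, h'⟩ | ⟨h, h'⟩ <;> rw [h'] <;>
    rw [neg_one_mul, neg_eq_iff_eq_neg] at h
  · simp [h, sub_eq_add_neg]
  · simp only [map_add, AddMonoidHom.add_apply, s_self, add_zero, h, neg_neg, e_one, e_neg_one,
      e2, add_neg_cancel_right]
    module
  · simp only [map_sub, AddMonoidHom.sub_apply, s_self, sub_zero, h, neg_neg, e_one, e_neg_one,
      e3, sub_add_cancel]
    module

theorem Ex.conj_tt {g : GL A F} {φ : A × A → A × A} (h : Ex g φ) (u : A × A) :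
    g * tt F u * g⁻¹ = tt F (φ u) := by
  have h1 : ∀ v, cj g (WM F v) = WM F (φ v) := fun v => by rw [← coe_W, cj_coe, h, coe_W]
  refine Units.ext ?_
  rw [← cj_coe, coe_tt, coe_tt, map_smul, map_add, map_add, map_smul, map_one, h1, h1, h.act.neg]

variable (F A) in
/-- The group generated by the lifted transvections. -/
def Gam : Subgroup (GL A F) := Subgroup.closure (Set.range (tt F))

theorem tt_mem (u : A × A) : tt F u ∈ Gam F A := Subgroup.subset_closure ⟨u, rfl⟩

theorem Gam_le {H : Subgroup (GL A F)} (h : ∀ u, tt F u ∈ H) : Gam F A ≤ H :=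
  (Subgroup.closure_le _).2 (Set.range_subset_iff.2 h)

theorem tt_mem_Nm (u : A × A) : tt F u ∈ Nm F A := ⟨_, (ex_tt u).act⟩

theorem exists_step {a a' : A × A} (h : s a a' ≠ 0) :
    ∃ γ ∈ Gam F A, ∃ φ, Ex γ φ ∧ φ a = a' ∧ ∀ b, s b a = s b a' → φ b = b := by
  have h0 : ∀ b, s b a = s b a' → τ (-1) (a' - a) b = b := fun b hb => by simp [τ, hb]
  rcases τ_cases (-1) (a' - a) a with ⟨h1, -⟩ | ⟨-, h2⟩ | ⟨h1, h2⟩
  · exact absurd (by simpa using h1) h
  · exact ⟨_, tt_mem _, _, ex_tt (a' - a), by rw [h2, add_sub_cancel], h0⟩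
  · refine ⟨_, (Gam F A).mul_mem (tt_mem _) (tt_mem _), _, (ex_tt (a' - a)).mul (ex_tt (a' - a)),
      ?_, fun b hb => by rw [Function.comp, h0 b hb, h0 b hb]⟩
    rw [Function.comp, h2, (ex_tt (F := F) _).act.sub, h2, τ, s_self, mul_zero, ZMod.val_zero,
      zero_nsmul, add_zero, sub_sub, add_self_eq]
    abel

theorem exists_trans {a a' : A × A} (ha : a ≠ 0) (ha' : a' ≠ 0) :
    ∃ γ ∈ Gam F A, ∃ φ, Ex γ φ ∧ φ a = a' := by
  obtain ⟨w, h1, h2⟩ : ∃ w, s a w ≠ 0 ∧ s a' w ≠ 0 := by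
    obtain ⟨v, hv⟩ := exists_s_ne ha
    obtain ⟨w, hw⟩ := exists_s_ne ha'
    by_cases h1 : s a' v = 0
    · by_cases h2 : s a w = 0
      · exact ⟨v + w, by simpa [h2], by simpa [h1]⟩
      · exact ⟨w, h2, hw⟩
    · exact ⟨v, hv, h1⟩
  obtain ⟨γ, hγ, φ, h, e, -⟩ := exists_step (F := F) h1
  obtain ⟨γ', hγ', φ', h', e', -⟩ := exists_step (F := F) (a := w) (a' := a')
    (by rwa [s_anti, neg_ne_zero])
  exact ⟨_, (Gam F A).mul_mem hγ' hγ, _, h'.mul h, by rw [Function.comp, e, e']⟩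

theorem exists_pair {a b a' b' : A × A} (h : s a b = 1) (h' : s a' b' = 1) :
    ∃ γ ∈ Gam F A, ∃ φ, Ex γ φ ∧ φ a = a' ∧ φ b = b' := by
  have step : ∀ c c', s a' c = 1 → s a' c' = 1 → s c c' ≠ 0 →
      ∃ γ ∈ Gam F A, ∃ φ, Ex γ φ ∧ φ a' = a' ∧ φ c = c' := fun c c' h1 h2 h3 => by
    obtain ⟨γ, hγ, φ, h, e, e'⟩ := exists_step (F := F) h3
    exact ⟨γ, hγ, φ, h, e' _ (h1.trans h2.symm), e⟩
  obtain ⟨γ, hγ, φ, h1, e⟩ := exists_trans (F := F) (a := a) (a' := a')
    (fun h0 => by simp [h0] at h) fun h0 => by simp [h0] at h'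
  have h2 : s a' (φ b) = 1 := by rw [← e, h1.act.s_eq, h]
  by_cases h3 : s (φ b) b' = 0
  · obtain ⟨γ1, hγ1, φ1, k1, e1, f1⟩ := step (φ b) (a' + φ b) h2 (by simp [h2])
      (by simp [s_anti a', h2])
    obtain ⟨γ2, hγ2, φ2, k2, e2, f2⟩ := step (a' + φ b) b' (by simp [h2]) h' (by simp [h', h3])
    exact ⟨_, (Gam F A).mul_mem hγ2 ((Gam F A).mul_mem hγ1 hγ), _, k2.mul (k1.mul h1),
      by simp [e, e1, e2], by simp [f1, f2]⟩
  · obtain ⟨γ1, hγ1, φ1, k1, e1, f1⟩ := step (φ b) b' h2 h' h3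
    exact ⟨_, (Gam F A).mul_mem hγ1 hγ, _, k1.mul h1, by simp [e, e1], by simp [f1]⟩

theorem det_conj (g h : GL A F) :
    ((g * h * g⁻¹ : GL A F) : Matrix A A F).det = (h : Matrix A A F).det := det_units_conj g h

theorem det_tt_eq {u v : A × A} (hu : u ≠ 0) (hv : v ≠ 0) :
    (tt F u : Matrix A A F).det = (tt F v : Matrix A A F).det := by
  obtain ⟨γ, -, φ, h, e⟩ := exists_trans (F := F) hu hv
  rw [← e, ← h.conj_tt, det_conj]

theorem tt_aux (k : ZMod 3) : (1 - ω ^ 2)⁻¹ * (ω + e F k + e F (-k)) = e F (k ^ 2) := by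
  rw [inv_mul_eq_iff_eq_mul₀ one_sub_om_sq]
  rcases zm3 k with rfl | rfl | rfl
  · simp only [neg_zero, e_zero, ne_eq, OfNat.ofNat_ne_zero, not_false_eq_true, zero_pow]
    linear_combination rel (F := F)
  · simp only [e_one, e_neg_one, one_pow]
    linear_combination ω * rel (F := F)
  · simp only [e_one, e_neg_one, neg_neg, even_two, Even.neg_pow, one_pow]
    linear_combination ω * rel (F := F)

theorem coe_tt_diag (z : A) :
    (tt F (0, z) : Matrix A A F) = diagonal fun b => e F (β z b ^ 2) := by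
  ext a b
  by_cases h : a = b <;> simp [coe_tt, WM, mo, h, ← tt_aux]

theorem tt_zero : tt F (0 : A × A) = 1 := Units.ext (by
  rw [← Prod.mk_zero_zero, coe_tt_diag]; simp)

theorem trace_tt {u : A × A} (hu : u ≠ 0) :
    (tt F u : Matrix A A F).trace = (1 - ω ^ 2)⁻¹ * ω * Fintype.card A ∧
      (((tt F u)⁻¹ : GL A F) : Matrix A A F).trace = (1 - ω)⁻¹ * ω ^ 2 * Fintype.card A := by
  have h1 : (WM F u).trace = 0 := hW.trace hu
  have h2 : (WM F (-u)).trace = 0 := hW.trace (neg_ne_zero.2 hu)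
  rw [coe_tt_inv]
  simp [coe_tt, h1, h2, mul_assoc]

/-- Signed permutation matrices. -/
def sp (π : Equiv.Perm A) : GL A F where
  val := mo π fun _ => ((Equiv.Perm.sign π : ℤ) : F)
  inv := mo π.symm fun _ => ((Equiv.Perm.sign π : ℤ) : F)
  val_inv := by
    rw [mo_mul, Equiv.self_comp_symm, mo_id, ← Int.cast_mul, ← Units.val_mul, Int.units_mul_self]
    simp
  inv_val := by
    rw [mo_mul, Equiv.symm_comp_self, mo_id, ← Int.cast_mul, ← Units.val_mul, Int.units_mul_self]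
    simp

omit [Om F] [AddCommGroup A] [Dot A] in
theorem coe_sp (π : Equiv.Perm A) :
    ((sp π : GL A F) : Matrix A A F) = mo π fun _ => ((Equiv.Perm.sign π : ℤ) : F) := rfl

theorem sp_mem_SG (π : Equiv.Perm A) : sp π ∈ SG F A := by
  have h : ((Equiv.Perm.sign π : ℤ) : F) * ((Equiv.Perm.sign π : ℤ) : F) = 1 := by
    rw [← Int.cast_mul, ← Units.val_mul, Int.units_mul_self]; simp
  refine mem_SG.2 ⟨mem_Un_of_mo rfl fun _ _ => by rw [map_intCast, h], ?_⟩
  obtain ⟨k, hk⟩ := odd_card (A := A)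
  rw [coe_sp, det_mo, Finset.prod_const, Finset.card_univ, hk, pow_succ', pow_mul, pow_two, h,
    one_pow, mul_one, h]

theorem ex_sp (α α' : A ≃+ A) (h : ∀ z b, β (α' z) (α b) = β z b) :
    Ex (sp α.toEquiv : GL A F) fun u => (α u.1, α' u.2) := fun u => by
  rw [mul_inv_eq_iff_eq_mul]
  refine Units.ext ?_
  simp only [Units.val_mul, coe_sp, coe_W, WM, mo_mul]
  congr 1
  · funext b; simp
  · funext b; simp [h, mul_comm]

theorem ex_neg : Ex (sp (Equiv.neg A) : GL A F) fun u => -u :=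
  ex_sp (AddEquiv.neg A) (AddEquiv.neg A) fun z b => by simp

theorem W_mem_SG (u : A × A) : W F u ∈ SG F A := by
  refine mem_SG.2 ⟨W_mem_Un u, ?_⟩
  have h1 := det_conj (sp (Equiv.neg A)) (W F u)
  rw [ex_neg] at h1
  have h2 := congrArg (fun g : GL A F => (g : Matrix A A F).det) (hW.mul_self (F := F) u)
  simp only [Units.val_mul, det_mul, h1] at h2
  exact mul_left_cancel₀ (isUnits_det_units _).ne_zero (h2.trans (mul_one _).symm)

section Prim

variable {H : Subgroup (GL A F)} (hWH : ∀ u, W F u ∈ H) (hT : ∀ u, tt F u ∈ H)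
include hWH hT

theorem prim : Prim H := fun N hN => by
  refine or_iff_not_imp_left.2 fun hs => ?_
  obtain ⟨n, hn, hs⟩ := SetLike.not_le_iff_exists.1 hs
  let pr : A × A → Matrix A A F → Matrix A A F := fun v a => ∑ u, e F (s u v) • cj (W F u) a
  have hc : (Fintype.card (A × A) : F) ≠ 0 := by
    rw [Fintype.card_prod, Nat.cast_mul]; exact mul_ne_zero card_ne card_ne
  have h1 : ∀ v a, ∃ c : F, pr v a = c • WM F v := fun v a => by
    refine (spans_of_W W_mem_RZ).induction (p := fun a => ∃ c : F, pr v a = c • WM F v) ?_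
      (fun x y ⟨c, hx⟩ ⟨d, hy⟩ => ⟨c + d, by
        rw [add_smul, ← hx, ← hy]; simp [pr, Finset.sum_add_distrib]⟩)
      (fun c x ⟨d, hx⟩ => ⟨c * d, by
        rw [mul_smul, ← hx]; simp [pr, Finset.smul_sum, smul_comm c]⟩) a
    rintro _ ⟨c, w, rfl⟩
    have : pr v (scal c * W F w : GL A F) = (c * ∑ u, e F (s.flip (v - w) u)) • WM F w := by
      simp only [pr, Finset.mul_sum, Finset.sum_smul]
      refine Finset.sum_congr rfl fun u _ => ?_
      rw [cj_coe, conj_scal_mul, hW.conj, coe_scal_mul, coe_scal_mul, smul_smul, smul_smul, coe_W,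
        coe_eu, mul_right_comm, ← e_add, mul_comm]
      simp [sub_eq_add_neg]
    by_cases hvw : v = w
    · exact ⟨_, by rw [this, hvw]⟩
    · obtain ⟨x, hx⟩ := exists_s_ne (sub_ne_zero.2 hvw)
      exact ⟨0, by rw [this, sum_e _ (x := x) (by rwa [AddMonoidHom.flip_apply, s_anti, neg_ne_zero])]
                   simp⟩
  have h2 : ∑ v, pr v n = (Fintype.card (A × A) : F) • (n : Matrix A A F) := by
    simp only [pr]
    rw [Finset.sum_comm, Finset.sum_eq_single 0]
    · simp [hW.zero, cj_one, Nat.cast_smul_eq_nsmul, ← Nat.cast_mul]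
    · intro u _ hu
      obtain ⟨x, hx⟩ := exists_s_ne hu
      rw [← Finset.sum_smul, sum_e _ hx, zero_smul]
    · simp
  obtain ⟨v, hv, h3⟩ : ∃ v, v ≠ 0 ∧ pr v n ≠ 0 := by
    by_contra hc'
    push Not at hc'
    obtain ⟨c, h3⟩ := h1 0 n
    rw [Finset.sum_eq_single 0 (fun v _ hv => hc' v hv) (by simp), h3, WM_zero] at h2
    exact hs (mem_scalars_of_eq_smul (c := (Fintype.card (A × A) : F)⁻¹ * c)
      (by rw [mul_smul, h2, inv_smul_smul₀ hc]))
  have h4 : WM F v ∈ spanAlg F N := by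
    obtain ⟨c, h4⟩ := h1 v n
    have hc0 : c ≠ 0 := fun h0 => h3 (by rw [h4, h0, zero_smul])
    rw [← inv_smul_smul₀ hc0 (WM F v), ← h4]
    exact Subalgebra.smul_mem _ (Subalgebra.sum_mem _ fun u _ => Subalgebra.smul_mem _
      (hN.spanAlg_inv _ (hWH u) _ (coe_mem_spanAlg hn)) _) _
  refine spans_W fun w => ?_
  by_cases hw : w = 0
  · rw [hw, WM_zero]; exact (spanAlg F N).one_mem
  · obtain ⟨γ, hγ, φ, h, e⟩ := exists_trans (F := F) hv hw
    have := hN.spanAlg_inv _ (Gam_le hT hγ) _ h4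
    rwa [← coe_W, cj_coe, h, e] at this

omit hWH hT in
theorem mem_RZ_of_comm {g : GL A F} (h : ∀ u, g * W F u * g⁻¹ * (W F u)⁻¹ ∈ scalars A F) :
    g ∈ RZ F A := Act.mem_RZ fun u => by
  obtain ⟨c, hc⟩ := mem_scalars.1 (h u)
  exact ⟨c, mul_inv_eq_iff_eq_mul.1 hc⟩

variable [Finite F]

theorem le_Nm_of_comm {N : Subgroup (GL A F)} (hN : NormIn H N) (hs : ¬ N ≤ scalars A F)
    (hc : ⁅N, N⁆ ≤ scalars A F) : H ≤ Nm F A := by
  have hsp := (prim hWH hT N hN).resolve_left hs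
  let π := QuotientGroup.mk' (scalars A F)
  have h1 : ∀ g, π g = 1 ↔ g ∈ scalars A F := fun g => QuotientGroup.eq_one_iff g
  have h3 : IsPGroup 3 ((Subgroup.closure (Set.range (W F)) ⊓ RZ F A).map π) := by
    rintro ⟨_, _, ⟨-, c, u, rfl⟩, rfl⟩
    refine ⟨1, Subtype.ext ?_⟩
    change π _ ^ 3 ^ 1 = 1
    rw [map_mul, (h1 _).2 (scal_mem c), one_mul, ← map_pow, pow_one, hW.cube, map_one]
  have hle : Subgroup.closure (Set.range (W F)) ≤ H :=
    (Subgroup.closure_le _).2 (Set.range_subset_iff.2 hWH)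
  obtain ⟨_, ⟨n, hn, rfl⟩, hn1, hfix⟩ := exists_fixed (N := N.map π) h3
    ((Subgroup.map_mono (inf_le_left.trans (hle.trans hN.le_normalizer))).trans
      (Subgroup.le_normalizer_map π)) (by
      have : Nat.card (N.map π) = Nat.card (N ⧸ (scalars A F).subgroupOf N) := by
        rw [← Subgroup.relIndex_ker, QuotientGroup.ker_mk']; rfl
      obtain ⟨k, hk, hA⟩ := Dot.card (A := A)
      rw [this, card_quotient_eq_sq hsp hc, ← Nat.card_eq_fintype_card, hA]
      exact Dvd.dvd.mul_right (dvd_pow_self 3 hk.ne') _)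
  obtain ⟨c, v, rfl⟩ : n ∈ RZ F A := by
    rw [← (RZ F A).inv_mem_iff]
    refine mem_RZ_of_comm fun u => (h1 _).1 ?_
    have := hfix _ ⟨_, ⟨Subgroup.subset_closure ⟨u, rfl⟩, W_mem_RZ u⟩, rfl⟩
    simp only [map_mul, map_inv, inv_inv]
    rw [mul_assoc, mul_assoc, ← mul_assoc (π (W F u)), this, inv_mul_cancel]
  have hv : v ≠ 0 := fun h => hn1 ((h1 _).2 (by rw [h, hW.zero, mul_one]; exact scal_mem c))
  have h4 : ∀ w, ∃ d, scal d * W F w ∈ N := fun w => by
    by_cases hw : w = 0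
    · exact ⟨1, by rw [hw, hW.zero, scal_one, one_mul]; exact N.one_mem⟩
    · obtain ⟨γ, hγ, φ, h, e⟩ := exists_trans (F := F) hv hw
      exact ⟨c, by rw [← e, ← h, ← conj_scal_mul]; exact hN.2 _ (Gam_le hT hγ) _ hn⟩
  refine fun h hh => mem_Nm.2 fun u => ?_
  obtain ⟨d, hd⟩ := h4 u
  rw [← (RZ F A).mul_mem_cancel_left (scal_mem_RZ d), ← conj_scal_mul]
  refine mem_RZ_of_comm fun w => ?_
  obtain ⟨b, hb⟩ := h4 w
  have := hc (Subgroup.commutator_mem_commutator (hN.2 _ hh _ hd) hb)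
  rwa [commutatorElement_def, conj_scal_mul _ _ (W F w), mul_inv_rev (scal b), ← mul_assoc,
    scal_inv, scal_comm, mul_assoc (scal b), ← mul_assoc, ← scal_mul, inv_mul_cancel, scal_one,
    one_mul] at this

theorem le_Nm_of_solvable {K : Subgroup (GL A F)} (hK : NormIn H K) (hs : ¬ K ≤ scalars A F)
    (hc : Group.IsSolvable K) : H ≤ Nm F A := by
  obtain ⟨N, hN, hle⟩ := exists_minNorm scalars_central hK hs
  by_cases h : ⁅N, N⁆ ≤ scalars A F
  · exact le_Nm_of_comm hWH hT hN.norm hN.not_le h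
  · obtain ⟨P, hP, hPN⟩ := hN.exists_compData scalars_central h
    have h1 : P ≤ K := hP.perfect.ge.trans ((Subgroup.commutator_mono (hPN.trans hle)
      (hPN.trans hle)).trans ((commutator_sup_central_le scalars_central inf_le_right
        inf_le_right).trans ((NormIn.refl K).commutator_le_left le_rfl)))
    exact absurd ((eq_bot_of_perfect_solvable hP.perfect h1 hc).le.trans bot_le) hP.not_le

end Prim

end Cfsg.Agent.Class.C63
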