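import Cfsg.Agent.Class.Asch.Solv
import Cfsg.Agent.Class.Asch.Extra

/-! Weyl operators for extraspecial `3`-groups of exponent `3`. -/

set_option autoImplicit false

namespace Cfsg.Agent.Class.C63

open Cfsg.Geo Cfsg.Agent.Class.Asch
open Matrix hiding mul_inv_rev
open scoped MatrixGroups commutatorElement

/-- A primitive cube root of unity, and an optional conjugation. -/
class Om (F : Type*) [Field F] where
  ω : F
  rel : ω ^ 2 + ω + 1 = 0
  three : (3 : F) ≠ 0
  u : Prop
  σ : F →+* F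
  hσ : u → σ ω = ω ^ 2

/-- A perfect pairing on an elementary abelian `3`-group. -/
class Dot (A : Type) [AddCommGroup A] where
  β : A →+ A →+ ZMod 3
  nd_l : ∀ a, a ≠ 0 → ∃ b, β a b ≠ 0
  nd_r : ∀ b, b ≠ 0 → ∃ a, β a b ≠ 0
  card : ∃ k, 0 < k ∧ Nat.card A = 3 ^ k

open Om Dot

variable {F : Type*} [Field F] [Om F]

local notation "ω" => (Om.ω : F)

theorem om_cube : ω ^ 3 = 1 := by linear_combination (ω - 1) * (rel (F := F))

theorem om_ne_zero : ω ≠ 0 := fun h => by simpa [h] using rel (F := F)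

theorem om_ne_one : ω ≠ 1 := fun h => three (F := F) (by
  have := rel (F := F); rw [h] at this; linear_combination this)

theorem one_sub_om : 1 - ω ≠ 0 := sub_ne_zero.2 om_ne_one.symm

theorem one_sub_om_sq : 1 - ω ^ 2 ≠ 0 := fun h => three (F := F) (by
  linear_combination (1 - ω) * h + (2 - ω) * (rel (F := F)))

variable (F) in
/-- The character of `ℤ/3`. -/
def e (k : ZMod 3) : F := ω ^ k.val

theorem zm3 (k : ZMod 3) : k = 0 ∨ k = 1 ∨ k = -1 := by revert k; decide

@[simp] theorem e_zero : e F 0 = 1 := by simp [e]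

theorem e_one : e F 1 = ω := pow_one _

theorem e_neg_one : e F (-1) = ω ^ 2 := rfl

theorem e_add (a b : ZMod 3) : e F (a + b) = e F a * e F b := by
  rw [e, e, e, ← pow_add, ZMod.val_add]
  conv_rhs => rw [← Nat.mod_add_div (a.val + b.val) 3, pow_add, pow_mul, om_cube, one_pow, mul_one]

theorem e_ne_zero (k : ZMod 3) : e F k ≠ 0 := pow_ne_zero _ om_ne_zero

theorem e_neg_mul (k : ZMod 3) : e F (-k) * e F k = 1 := by rw [← e_add]; simp

theorem e_eq_one {k : ZMod 3} : e F k = 1 ↔ k = 0 := by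
  refine ⟨fun h => ?_, fun h => by simp [h]⟩
  rcases zm3 k with rfl | rfl | rfl
  · rfl
  · exact absurd (e_one.symm.trans h) om_ne_one
  · exact absurd (by rw [← e_neg_one, h, sub_self]) (one_sub_om_sq (F := F))

theorem e_inj {a b : ZMod 3} (h : e F a = e F b) : a = b := by
  rw [← sub_eq_zero, ← e_eq_one (F := F), sub_eq_add_neg, e_add, h, mul_comm, e_neg_mul]

theorem exists_e {c : F} (h : c ^ 3 = 1) : ∃ k, c = e F k := by
  have : (c - 1) * (c - ω) * (c - ω ^ 2) = 0 := by
    linear_combination h + (c - c ^ 2 + (ω - 1) * (c - 1)) * (rel (F := F))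
  rcases mul_eq_zero.1 this with h | h
  · rcases mul_eq_zero.1 h with h | h
    · exact ⟨0, by simpa using sub_eq_zero.1 h⟩
    · exact ⟨1, by rw [e_one]; exact sub_eq_zero.1 h⟩
  · exact ⟨-1, sub_eq_zero.1 h⟩

theorem σ_e (h : u F) (k : ZMod 3) : σ (e F k) = e F (-k) := by
  rcases zm3 k with rfl | rfl | rfl
  · simp
  · rw [e_one, hσ h, e_neg_one]
  · rw [e_neg_one, neg_neg, e_one, map_pow, hσ h]
    linear_combination ω * om_cube (F := F)

theorem sum_e {X : Type*} [AddCommGroup X] [Fintype X] (f : X →+ ZMod 3) {x : X} (h : f x ≠ 0) :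
    ∑ y, e F (f y) = 0 := by
  have h1 : ∑ y, e F (f y) = e F (f x) * ∑ y, e F (f y) := by
    rw [Finset.mul_sum, ← Equiv.sum_comp (Equiv.addLeft x)]
    simp [e_add]
  by_contra h0
  exact h (e_eq_one.1 (mul_right_cancel₀ h0 (by rw [← h1, one_mul])))

variable (F) in
/-- The character as a unit. -/
def eu (k : ZMod 3) : Fˣ := Units.mk0 (e F k) (e_ne_zero k)

@[simp] theorem coe_eu (k : ZMod 3) : (eu F k : F) = e F k := rfl

@[simp] theorem eu_zero : eu F 0 = 1 := Units.ext e_zero

theorem eu_add (a b : ZMod 3) : eu F (a + b) = eu F a * eu F b := Units.ext (e_add a b)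

theorem eu_neg (a : ZMod 3) : eu F (-a) = (eu F a)⁻¹ :=
  eq_inv_of_mul_eq_one_left (by rw [← eu_add]; simp)

section Scal

omit [Om F]
variable {ι : Type} [Fintype ι] [DecidableEq ι]

theorem scal_mul (a b : Fˣ) : (scal (a * b) : GL ι F) = scal a * scal b := map_mul _ a b

theorem scal_inv (a : Fˣ) : (scal a : GL ι F)⁻¹ = scal a⁻¹ := (map_inv _ a).symm

theorem scal_comm (a : Fˣ) (g : GL ι F) : g * scal a = scal a * g :=
  (scalars_comm' (scal_mem a) g).symm

theorem scal_left_comm (a : Fˣ) (g h : GL ι F) : g * (scal a * h) = scal a * (g * h) := by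
  rw [← mul_assoc, scal_comm, mul_assoc]

theorem conj_scal (a : Fˣ) (g : GL ι F) : g * scal a * g⁻¹ = scal a := by
  rw [scal_comm, mul_inv_cancel_right]

theorem conj_scal_mul (a : Fˣ) (g h : GL ι F) :
    g * (scal a * h) * g⁻¹ = scal a * (g * h * g⁻¹) := by
  rw [scal_left_comm]; simp only [mul_assoc]

theorem scal_conj (a : Fˣ) (g h : GL ι F) : scal a * g * h * (scal a * g)⁻¹ = g * h * g⁻¹ := by
  rw [mul_inv_rev, scal_inv, ← mul_assoc, scal_comm, ← mul_assoc, ← mul_assoc, ← mul_assoc,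
    ← scal_mul, inv_mul_cancel, scal_one, one_mul]

theorem coe_scal_mul (a : Fˣ) (g : GL ι F) :
    ((scal a * g : GL ι F) : Matrix ι ι F) = (a : F) • (g : Matrix ι ι F) := by
  rw [Units.val_mul, coe_scal, smul_mul, Matrix.one_mul]

theorem mem_scalars {g : GL ι F} : g ∈ scalars ι F ↔ ∃ c, g = scal c :=
  ⟨fun ⟨c, h⟩ => ⟨c, h.symm⟩, fun ⟨c, h⟩ => ⟨c, h.symm⟩⟩

theorem det_scal (a : Fˣ) : ((scal a : GL ι F) : Matrix ι ι F).det = a ^ Fintype.card ι := by
  simp [coe_scal]

theorem eq_one_of_conj [Nonempty ι] {a : Fˣ} {g h : GL ι F} (e : g * h * g⁻¹ = scal a * h)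
    (ht : (h : Matrix ι ι F).trace ≠ 0) : a = 1 := by
  have := trace_cj g (h : Matrix ι ι F)
  rw [cj_coe, e, coe_scal_mul, trace_smul, smul_eq_mul] at this
  exact Units.ext (mul_right_cancel₀ ht (by rw [this]; simp))

theorem scal_eq_one [Nonempty ι] {a : Fˣ} (h : (scal a : GL ι F) = 1) : a = 1 :=
  scal_injective (h.trans scal_one.symm)

theorem pow_eq_one_of_conj [Nonempty ι] {a : Fˣ} {g h k : GL ι F} (e : g * h * g⁻¹ = scal a * k)
    {n : ℕ} (hh : h ^ n = 1) (hk : k ^ n = 1) : a ^ n = 1 := by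
  have := congrArg (· ^ n) e
  simp only [conj_pow, hh, mul_one, mul_inv_cancel] at this
  rw [Commute.mul_pow (scal_comm a k).symm, hk, mul_one, scal_pow] at this
  exact scal_eq_one this.symm

/-- Monomial matrices. -/
def mo (π : ι → ι) (d : ι → F) : Matrix ι ι F := of fun i j => if i = π j then d j else 0

theorem mo_mul (π ρ : ι → ι) (d c : ι → F) :
    mo π d * mo ρ c = mo (π ∘ ρ) fun j => d (ρ j) * c j := by
  ext i j
  simp [mo, mul_apply]

theorem mo_id (d : ι → F) : mo id d = diagonal d := by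
  ext i j
  by_cases h : i = j <;> simp [mo, h]

theorem smul_mo (a : F) (π : ι → ι) (d : ι → F) : a • mo π d = mo π fun j => a * d j := by
  ext i j
  simp [mo]

theorem det_mo (π : Equiv.Perm ι) (d : ι → F) :
    (mo π d).det = ((Equiv.Perm.sign π : ℤ) : F) * ∏ i, d i := by
  have : mo π d = (diagonal d).submatrix π.symm id := by
    ext i j
    by_cases h : i = π j
    · simp [mo, h]
    · simp [mo, h, diagonal_apply_ne _ (mt (Equiv.symm_apply_eq π).1 h)]
  rw [this, det_permute, det_diagonal]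
  simp [← Equiv.Perm.inv_def]

end Scal

section Un

variable {ι κ : Type}

/-- The adjoint. -/
def ad (M : Matrix ι κ F) : Matrix κ ι F := (M.map σ)ᵀ

theorem ad_mul {μ : Type} [Fintype κ] (M : Matrix ι κ F) (N : Matrix κ μ F) :
    ad (M * N) = ad N * ad M := by rw [ad, Matrix.map_mul, transpose_mul]; rfl

theorem ad_add (M N : Matrix ι κ F) : ad (M + N) = ad M + ad N := by ext; simp [ad]

theorem ad_sub (M N : Matrix ι κ F) : ad (M - N) = ad M - ad N := by ext; simp [ad]

theorem ad_smul (c : F) (M : Matrix ι κ F) : ad (c • M) = σ c • ad M := by ext; simp [ad]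

theorem ad_one [DecidableEq ι] : ad (1 : Matrix ι ι F) = 1 := by simp [ad]

variable [Fintype ι] [DecidableEq ι]

theorem det_ad (M : Matrix ι ι F) : (ad M).det = σ M.det := by
  rw [ad, det_transpose, RingHom.map_det]; rfl

variable (F ι) in
/-- The unitary group (everything in the linear case). -/
def Un : Subgroup (GL ι F) where
  carrier := {g | u F → ad (g : Matrix ι ι F) = (g⁻¹ : GL ι F)}
  mul_mem' ha hb h := by rw [Units.val_mul, ad_mul, ha h, hb h, mul_inv_rev, Units.val_mul]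
  one_mem' _ := by simp [ad_one]
  inv_mem' {a} ha h := by
    have h1 : ad ((a⁻¹ : GL ι F) : Matrix ι ι F) * (a⁻¹ : GL ι F) = 1 := by
      rw [← ha h, ← ad_mul, ha h, Units.mul_inv, ad_one]
    rw [inv_inv, ← mul_one (ad _), ← Units.inv_mul a, ← mul_assoc, h1, one_mul]

theorem mem_Un {g : GL ι F} : g ∈ Un F ι ↔ (u F → ad (g : Matrix ι ι F) = (g⁻¹ : GL ι F)) :=
  Iff.rfl

theorem mem_Un' {g : GL ι F} : g ∈ Un F ι ↔ (u F → ad (g : Matrix ι ι F) * g = 1) :=
  forall_congr' fun _ => ⟨fun h => by rw [h, Units.inv_mul],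
    fun h => (Units.inv_eq_of_mul_eq_one_left h).symm⟩

variable (F ι) in
/-- The ambient group `SL` or `SU`. -/
abbrev SG : Subgroup (GL ι F) := Un F ι ⊓ specialLinear ι F

theorem mem_SG {g : GL ι F} : g ∈ SG F ι ↔ g ∈ Un F ι ∧ (g : Matrix ι ι F).det = 1 :=
  and_congr_right fun _ => by
    simp [specialLinear, MonoidHom.mem_ker, Units.ext_iff]

theorem ad_mo (π : Equiv.Perm ι) (d : ι → F) :
    ad (mo π d) = mo π.symm fun i => σ (d (π.symm i)) := by
  ext i j
  by_cases h : j = π i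
  · simp [ad, mo, h]
  · simp [ad, mo, h, mt (Equiv.eq_symm_apply π).1 (Ne.symm h)]

theorem mem_Un_of_mo {g : GL ι F} {π : Equiv.Perm ι} {d : ι → F} (h : (g : Matrix ι ι F) = mo π d)
    (hd : u F → ∀ i, σ (d i) * d i = 1) : g ∈ Un F ι := mem_Un'.2 fun hu => by
  rw [h, ad_mo, mo_mul, Equiv.symm_comp_self, mo_id]
  simp [hd hu]

end Un

section Weyl

variable {A : Type} [AddCommGroup A] [Dot A]

/-- The symplectic form. -/
def s : A × A →+ A × A →+ ZMod 3 :=
  AddMonoidHom.mk' (fun u => AddMonoidHom.mk' (fun v => β v.2 u.1 - β u.2 v.1)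
    fun v w => by simp; ring) fun u v => by ext w; simp; ring

theorem s_apply (u v : A × A) : s u v = β v.2 u.1 - β u.2 v.1 := rfl

@[simp] theorem s_self (u : A × A) : s u u = 0 := sub_self _

theorem s_anti (u v : A × A) : s v u = -s u v := by simp [s_apply]

theorem exists_s_ne {u : A × A} (h : u ≠ 0) : ∃ v, s u v ≠ 0 := by
  by_cases h1 : u.1 = 0
  · obtain ⟨b, hb⟩ := nd_l u.2 fun h2 => h (Prod.ext h1 h2)
    exact ⟨(b, 0), by simpa [s_apply, h1]⟩
  · obtain ⟨b, hb⟩ := nd_r u.1 h1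
    exact ⟨(0, b), by simpa [s_apply]⟩

theorem exists_s_one {u : A × A} (h : u ≠ 0) : ∃ v, s u v = 1 := by
  obtain ⟨v, hv⟩ := exists_s_ne h
  rcases zm3 (s u v) with h | h | h
  · exact absurd h hv
  · exact ⟨v, h⟩
  · exact ⟨-v, by simp [h]⟩

theorem eq_of_s {u v : A × A} (h : ∀ w, s u w = s v w) : u = v := by
  by_contra hne
  obtain ⟨w, hw⟩ := exists_s_ne (sub_ne_zero.2 hne)
  exact hw (by simp [h])

theorem add_self_eq (u : A × A) : u + u = -u :=
  eq_of_s fun w => by simp only [map_add, map_neg, AddMonoidHom.add_apply, AddMonoidHom.neg_apply]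
                      generalize s u w = k; revert k; decide

theorem three_eq (u : A × A) : u + u + u = 0 := by rw [add_self_eq, neg_add_cancel]

theorem eq_zero_of_neg {u : A × A} (h : -u = u) : u = 0 := by
  rw [← add_self_eq] at h; simpa using h

/-- A family of operators with the Weyl multiplication rule. -/
def IsWeyl {ι : Type} [Fintype ι] [DecidableEq ι] (W : A × A → GL ι F) : Prop :=
  ∀ u v, W u * W v = scal (eu F (s u v)) * W (u + v)

namespace IsWeyl

variable {ι : Type} [Fintype ι] [DecidableEq ι] {W : A × A → GL ι F} (h : IsWeyl W)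
include h

theorem zero : W 0 = 1 := by simpa [scal_one] using h 0 0

theorem neg (u : A × A) : W (-u) = (W u)⁻¹ :=
  eq_inv_of_mul_eq_one_left (by simpa [scal_one, h.zero] using h (-u) u)

theorem mul_self (u : A × A) : W u * W u = W (-u) := by
  simpa [scal_one, add_self_eq] using h u u

theorem cube (u : A × A) : W u ^ 3 = 1 := by
  rw [pow_succ, pow_two, h.mul_self, h.neg, inv_mul_cancel]

theorem conj (u v : A × A) : W u * W v * (W u)⁻¹ = scal (eu F (-s u v)) * W v := by
  rw [h, ← h.neg, mul_assoc, h, ← mul_assoc, ← scal_mul, ← eu_add]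
  congr 3
  · simp only [map_add, map_neg, AddMonoidHom.add_apply, s_self, s_anti u v]
    generalize s u v = k; revert k; decide
  · abel

theorem coe_mul (u v : A × A) : (W u : Matrix ι ι F) * W v = e F (s u v) • (W (u + v) : Matrix ι ι F) := by
  rw [← Units.val_mul, h, coe_scal_mul, coe_eu]

variable [Nonempty ι]

theorem trace {u : A × A} (hu : u ≠ 0) : (W u : Matrix ι ι F).trace = 0 := by
  obtain ⟨v, hv⟩ := exists_s_ne hu
  by_contra h0
  have := congrArg Units.val (eq_one_of_conj (h.conj v u) h0)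
  rw [s_anti, neg_neg, coe_eu, Units.val_one, e_eq_one] at this
  exact hv this

theorem eq_of_scal {a b : Fˣ} {u v : A × A} (e : scal a * W u = scal b * W v) : u = v ∧ a = b := by
  have : u = v := eq_of_s fun w => by
    have h1 := h.conj w u
    rw [← mul_right_inj (scal a), ← conj_scal_mul, e, conj_scal_mul, h.conj, scal_left_comm,
      ← e, scal_left_comm, mul_right_inj, mul_left_inj] at h1
    have := e_inj (F := F) (congrArg Units.val (scal_injective h1))
    rw [s_anti w u, s_anti w v, this]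
  subst this
  exact ⟨rfl, scal_injective (mul_right_cancel e)⟩

theorem not_scalar {u : A × A} (hu : u ≠ 0) : W u ∉ scalars ι F := fun hs => by
  obtain ⟨c, hc⟩ := mem_scalars.1 hs
  exact hu (h.eq_of_scal (a := 1) (b := c) (by rw [scal_one, one_mul, h.zero, mul_one, hc])).1

end IsWeyl

variable [Fintype A] [DecidableEq A]

variable (F) in
/-- The matrix of a Weyl operator. -/
def WM (u : A × A) : Matrix A A F := mo (· + u.1) fun b => e F (β u.2 b - β u.2 u.1)

theorem WM_mul (u v : A × A) : WM F u * WM F v = e F (s u v) • WM F (u + v) := by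
  rw [WM, WM, WM, mo_mul, smul_mo]
  congr 1
  · funext b; simp; abel
  · funext b
    rw [← e_add, ← e_add]
    congr 1
    simp only [s_apply, map_add, Prod.fst_add, Prod.snd_add, AddMonoidHom.add_apply]
    have : (3 : ZMod 3) = 0 := rfl
    linear_combination (β u.2 v.1) * this

theorem WM_zero : WM F (0 : A × A) = 1 := by
  rw [← diagonal_one, ← mo_id]
  simp [WM, Function.id_def]

variable (F) in
/-- The Weyl operators. -/
def W (u : A × A) : GL A F :=
  ⟨WM F u, WM F (-u), by simp [WM_mul, WM_zero], by simp [WM_mul, WM_zero]⟩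

theorem coe_W (u : A × A) : (W F u : Matrix A A F) = WM F u := rfl

theorem hW : IsWeyl (W F : A × A → GL A F) := fun u v =>
  Units.ext (by rw [coe_scal_mul, Units.val_mul]; exact WM_mul u v)

theorem W_mem_Un (u : A × A) : W F u ∈ Un F A :=
  mem_Un_of_mo (π := Equiv.addRight u.1) rfl fun h _ => by rw [σ_e h, e_neg_mul]

omit [DecidableEq A] in
theorem card_ne : (Fintype.card A : F) ≠ 0 := by
  obtain ⟨k, -, hk⟩ := Dot.card (A := A)
  rw [← Nat.card_eq_fintype_card, hk]
  exact_mod_cast pow_ne_zero k (three (F := F))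

omit [DecidableEq A] in
theorem odd_card : Odd (Fintype.card A) := by
  obtain ⟨k, -, hk⟩ := Dot.card (A := A)
  rw [← Nat.card_eq_fintype_card, hk]
  exact Odd.pow (by decide)

variable (F A) in
/-- The Weyl operators up to scalars. -/
def RZ : Subgroup (GL A F) where
  carrier := {g | ∃ c u, g = scal c * W F u}
  mul_mem' := by
    rintro _ _ ⟨a, u, rfl⟩ ⟨b, v, rfl⟩
    exact ⟨a * (b * eu F (s u v)), u + v, by
      rw [mul_assoc, scal_left_comm, hW, scal_mul, scal_mul]; simp only [mul_assoc]⟩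
  one_mem' := ⟨1, 0, by rw [scal_one, hW.zero, one_mul]⟩
  inv_mem' := by
    rintro _ ⟨a, u, rfl⟩
    exact ⟨a⁻¹, -u, by rw [mul_inv_rev, scal_inv, scal_comm, hW.neg]⟩

theorem W_mem_RZ (u : A × A) : W F u ∈ RZ F A := ⟨1, u, by rw [scal_one, one_mul]⟩

theorem scal_mem_RZ (c : Fˣ) : scal c ∈ RZ F A := ⟨c, 0, by rw [hW.zero, mul_one]⟩

theorem spans_W {H : Submodule F (Matrix A A F)} (h : ∀ u, WM F u ∈ H) : H = ⊤ := by
  have key : ∀ a b, single a b (1 : F) ∈ H := fun a b => by
    have : single a b (1 : F) = (Fintype.card A : F)⁻¹ •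
        ∑ z, e F (β z (a - b) - β z b) • WM F (a - b, z) := by
      ext a' b'
      simp only [WM, mo, Matrix.smul_apply, Matrix.sum_apply, of_apply, smul_eq_mul, mul_ite, mul_zero, ← e_add]
      have h1 : ∀ z, β z (a - b) - β z b + (β z b' - β z (a - b)) = β.flip (b' - b) z := fun z => by
        simp
      simp only [h1]
      by_cases hb : b' = b
      · subst hb
        by_cases ha : a' = a
        · simp [ha, card_ne]
        · simp [ha, Ne.symm ha]
      · obtain ⟨z, hz⟩ := nd_r _ (sub_ne_zero.2 hb)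
        have := sum_e (F := F) (β.flip (b' - b)) (x := z) hz
        rw [single_apply_of_col_ne _ _ (Ne.symm hb)]
        split_ifs
        · rw [this, mul_zero]
        · simp
    exact this ▸ H.smul_mem _ (H.sum_mem fun z _ => H.smul_mem _ (h _))
  refine eq_top_iff.2 fun M _ => ?_
  rw [matrix_eq_sum_smul_single M]
  exact H.sum_mem fun a _ => H.sum_mem fun b _ => H.smul_mem _ (key a b)

theorem spans_of_W {H : Subgroup (GL A F)} (h : ∀ u, W F u ∈ H) : Spans H :=
  spans_W fun u => Submodule.subset_span (mem_matrixSet (h u))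

theorem scalar_of_comm {M : Matrix A A F} (h : ∀ u, M * WM F u = WM F u * M) :
    ∃ c : F, M = c • 1 :=
  (spans_of_W W_mem_RZ).scalar (by
    rintro _ ⟨c, u, rfl⟩
    rw [coe_scal_mul, Matrix.mul_smul, smul_mul, coe_W, h])

theorem mem_scalars_of_comm {g : GL A F} (h : ∀ u, g * W F u * g⁻¹ = W F u) : g ∈ scalars A F := by
  obtain ⟨c, hc⟩ := scalar_of_comm (F := F) (M := g) fun u =>
    congrArg Units.val (mul_inv_eq_iff_eq_mul.1 (h u))
  exact mem_scalars_of_eq_smul hc

/-- `g` induces `φ` on the Weyl operators up to scalars. -/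
def Act (g : GL A F) (φ : A × A → A × A) : Prop :=
  ∀ u, ∃ c, g * W F u * g⁻¹ = scal c * W F (φ u)

theorem act_of_RZ {g : GL A F} (h : g ∈ RZ F A) : Act g id := fun u => by
  obtain ⟨c, v, rfl⟩ := h
  exact ⟨_, by rw [scal_conj, hW.conj, id]⟩

theorem Act.mul {g k : GL A F} {φ ψ : A × A → A × A} (h : Act g φ) (h' : Act k ψ) :
    Act (g * k) (φ ∘ ψ) := fun u => by
  obtain ⟨c, hc⟩ := h' u
  obtain ⟨d, hd⟩ := h (ψ u)
  refine ⟨c * d, ?_⟩
  rw [show g * k * W F u * (g * k)⁻¹ = g * (k * W F u * k⁻¹) * g⁻¹ by group, hc, conj_scal_mul, hd,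
    scal_mul, mul_assoc, Function.comp]

theorem Act.mem_RZ {g : GL A F} (h : Act g id) : g ∈ RZ F A := by
  have : ∃ v, ((g * W F v : GL A F) : Matrix A A F).trace ≠ 0 := by
    by_contra hc
    push Not at hc
    have h1 : ((g : Matrix A A F) * (g⁻¹ : GL A F)).trace = 0 := by
      refine (spans_of_W W_mem_RZ).induction (p := fun M => ((g : Matrix A A F) * M).trace = 0)
        ?_ (fun x y hx hy => by rw [mul_add, trace_add, hx, hy, add_zero])
        (fun c x hx => by rw [Matrix.mul_smul, trace_smul, hx, smul_zero]) _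
      rintro _ ⟨c, u, rfl⟩
      rw [coe_scal_mul, Matrix.mul_smul, trace_smul, ← Units.val_mul, hc, smul_zero]
    rw [Units.mul_inv, trace_one] at h1
    exact card_ne h1
  obtain ⟨v, hv⟩ := this
  have h2 := h.mul (act_of_RZ (W_mem_RZ v))
  obtain ⟨c, hc⟩ := mem_scalars.1 (mem_scalars_of_comm (g := g * W F v) fun u => by
    obtain ⟨c, hc⟩ := h2 u
    have : c⁻¹ = 1 := eq_one_of_conj (g := W F u) (by
      rw [mul_inv_eq_iff_eq_mul, ← scal_inv, mul_assoc, eq_inv_mul_iff_mul_eq, ← mul_assoc]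
      exact (mul_inv_eq_iff_eq_mul.1 hc).symm) hv
    rw [hc, inv_eq_one.1 this, scal_one, one_mul]; rfl)
  exact ⟨c, -v, by rw [hW.neg, ← hc, mul_inv_cancel_right]⟩

theorem Act.unique {g : GL A F} {φ ψ : A × A → A × A} (h : Act g φ) (h' : Act g ψ) : φ = ψ :=
  funext fun u => by
    obtain ⟨c, hc⟩ := h u
    obtain ⟨d, hd⟩ := h' u
    exact (hW.eq_of_scal (hc.symm.trans hd)).1

namespace Act

variable {g : GL A F} {φ : A × A → A × A} (h : Act g φ)
include h

theorem add (u v : A × A) : φ (u + v) = φ u + φ v := by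
  obtain ⟨a, ha⟩ := h u
  obtain ⟨b, hb⟩ := h v
  obtain ⟨c, hc⟩ := h (u + v)
  have : g * (W F u * W F v) * g⁻¹ = g * W F u * g⁻¹ * (g * W F v * g⁻¹) := by group
  rw [hW, conj_scal_mul, ha, hb, hc, mul_assoc, scal_left_comm b, hW, ← mul_assoc, ← mul_assoc,
    ← mul_assoc, ← scal_mul, ← scal_mul, ← scal_mul] at this
  exact (hW.eq_of_scal this).1

theorem zero : φ 0 = 0 := by simpa using h.add 0 0

theorem neg (u : A × A) : φ (-u) = -φ u :=
  eq_neg_of_add_eq_zero_left (by rw [← h.add, neg_add_cancel, h.zero])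

theorem sub (u v : A × A) : φ (u - v) = φ u - φ v := by
  rw [sub_eq_add_neg, h.add, h.neg, sub_eq_add_neg]

theorem nsmul (n : ℕ) (u : A × A) : φ (n • u) = n • φ u := by
  induction n with
  | zero => simp [h.zero]
  | succ n ih => rw [succ_nsmul, h.add, ih, succ_nsmul]

theorem s_eq (u v : A × A) : s (φ u) (φ v) = s u v := by
  obtain ⟨a, ha⟩ := h u
  obtain ⟨b, hb⟩ := h v
  have : g * (W F u * W F v * (W F u)⁻¹) * g⁻¹ =
      g * W F u * g⁻¹ * (g * W F v * g⁻¹) * (g * W F u * g⁻¹)⁻¹ := by group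
  rw [hW.conj, conj_scal_mul, ha, hb, scal_conj, conj_scal_mul, hW.conj, scal_left_comm,
    mul_right_inj, mul_left_inj] at this
  exact neg_injective (e_inj (F := F) (congrArg Units.val (scal_injective this))).symm

theorem ne_zero {u : A × A} (hu : u ≠ 0) : φ u ≠ 0 := fun h0 => by
  obtain ⟨v, hv⟩ := exists_s_ne hu
  exact hv (by rw [← h.s_eq, h0]; simp)

theorem injective : Function.Injective φ := fun u v e => by
  by_contra hne
  exact h.ne_zero (sub_ne_zero.2 hne) (by rw [h.sub, e, sub_self])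

theorem surjective : Function.Surjective φ := Finite.surjective_of_injective h.injective

theorem inv {ψ : A × A → A × A} (hψ : ∀ u, φ (ψ u) = u) : Act g⁻¹ ψ := fun u => by
  obtain ⟨c, hc⟩ := h (ψ u)
  refine ⟨c⁻¹, ?_⟩
  rw [hψ] at hc
  rw [← scal_inv, eq_inv_mul_iff_mul_eq, ← conj_scal_mul, ← hc]
  group

end Act

variable (F A) in
/-- The normaliser of the Weyl operators. -/
def Nm : Subgroup (GL A F) where
  carrier := {g | ∃ φ, Act g φ}
  mul_mem' := fun ⟨_, h⟩ ⟨_, h'⟩ => ⟨_, h.mul h'⟩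
  one_mem' := ⟨id, act_of_RZ (RZ F A).one_mem⟩
  inv_mem' := fun ⟨_, h⟩ => ⟨_, h.inv (Function.rightInverse_surjInv h.surjective)⟩

theorem mem_Nm {g : GL A F} : g ∈ Nm F A ↔ ∀ u, g * W F u * g⁻¹ ∈ RZ F A :=
  ⟨fun ⟨_, h⟩ u => (h u).imp fun _ hc => ⟨_, hc⟩, fun h => by
    choose c φ h using h
    exact ⟨φ, fun u => ⟨_, h u⟩⟩⟩

theorem RZ_le_Nm : RZ F A ≤ Nm F A := fun _ h => ⟨_, act_of_RZ h⟩

theorem conj_mem_RZ {g r : GL A F} (hg : g ∈ Nm F A) (hr : r ∈ RZ F A) : g * r * g⁻¹ ∈ RZ F A := by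
  obtain ⟨c, u, rfl⟩ := hr
  rw [conj_scal_mul]
  exact (RZ F A).mul_mem (scal_mem_RZ c) (mem_Nm.1 hg u)

end Weyl

end Cfsg.Agent.Class.C63
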